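import Mathlib
import Cfsg.Agent.Lib.Helper98.FW.Key

set_option autoImplicit false
set_option linter.unusedSectionVars false

/-!
# One-dimensional weight spaces: the commutant of `T` is commutative
-/

namespace Cfsg.Agent.Lib.Helper98.FW

open Module

variable {K W : Type*} [Field K] [AddCommGroup W] [Module K W]
variable {T : Type*} [Group T] [Fintype T] {E : Type*} [Group E] [Fintype E]

theorem card_mul_finrank_range_le [FiniteDimensional K W] (σ : E →* Module.End K W)
    (P : Module.End K W) (hidem : P * P = P)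
    (horth : ∀ e, e ≠ 1 → P * (σ e * P * σ e⁻¹) = 0) :
    Fintype.card E * finrank K (LinearMap.range P) ≤ finrank K W := by
  classical
  let Φ : (E → LinearMap.range P) →ₗ[K] W :=
    ∑ e, (σ e) ∘ₗ (LinearMap.range P).subtype ∘ₗ LinearMap.proj e
  have hΦ : ∀ v, Φ v = ∑ e, σ e (v e : W) := by
    intro v
    simp [Φ, LinearMap.sum_apply]
  have hP : ∀ x : LinearMap.range P, P x = x := by
    rintro ⟨_, y, rfl⟩
    change P (P y) = P y
    rw [← Module.End.mul_apply, hidem]
  have hinj : Function.Injective Φ := by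
    rw [injective_iff_map_eq_zero]
    intro v hv
    funext g
    have h1 : P (σ g⁻¹ (Φ v)) = v g := by
      rw [hΦ, map_sum, map_sum, Finset.sum_eq_single g]
      · rw [← Module.End.mul_apply (σ g⁻¹), ← map_mul, inv_mul_cancel, map_one,
          Module.End.one_apply, hP]
      · intro e _ he
        have h2 : P * σ (g⁻¹ * e) * P = 0 := P_sigma_P σ P horth _ (by
          intro h
          apply he
          rw [inv_mul_eq_one] at h
          exact h.symm)
        calc P (σ g⁻¹ (σ e (v e))) = (P * σ (g⁻¹ * e) * P) (v e) := by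
              rw [Module.End.mul_apply, Module.End.mul_apply, hP, map_mul, Module.End.mul_apply]
          _ = 0 := by rw [h2, LinearMap.zero_apply]
      · intro h
        exact absurd (Finset.mem_univ _) h
    rw [hv, map_zero, map_zero] at h1
    exact Subtype.ext h1.symm
  have := LinearMap.finrank_le_finrank_of_injective hinj
  rw [Module.finrank_pi_fintype] at this
  simpa using this

theorem comm_on_of_finrank_le_one [FiniteDimensional K W] (S : Submodule K W)
    (hS : finrank K S ≤ 1) (A B : Module.End K W)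
    (hA : ∀ x ∈ S, A x ∈ S) (hB : ∀ x ∈ S, B x ∈ S) (x : W) (hx : x ∈ S) :
    A (B x) = B (A x) := by
  obtain ⟨v₀, hv₀⟩ := finrank_le_one_iff.1 hS
  obtain ⟨c, hc⟩ := hv₀ ⟨x, hx⟩
  obtain ⟨a, ha⟩ := hv₀ ⟨A v₀, hA _ v₀.2⟩
  obtain ⟨b, hb⟩ := hv₀ ⟨B v₀, hB _ v₀.2⟩
  have hc' : x = c • (v₀ : W) := (congrArg Subtype.val hc).symm
  have ha' : A v₀ = a • (v₀ : W) := (congrArg Subtype.val ha).symm
  have hb' : B v₀ = b • (v₀ : W) := (congrArg Subtype.val hb).symm
  simp only [hc', map_smul, hb', ha']
  rw [smul_comm a b]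

theorem commute_of_finrank_fix_le_one [IsAlgClosed K] [FiniteDimensional K W]
    (hT : (Fintype.card T : K) ≠ 0)
    (τ : T →* Module.End K W) (σ : E →* Module.End K W) (α : E →* MulAut T)
    (hcomp : ∀ e t, σ e * τ t * σ e⁻¹ = τ (α e t)) (hcomm : ∀ s t, τ s * τ t = τ t * τ s)
    (h0 : ∑ t, τ t = 0)
    (hfree : ∀ e : E, e ≠ 1 → ∀ l : T →* Kˣ, chAct α e l = l → l = 1)
    (h1 : finrank K (fixSub σ) ≤ 1)
    (A B : Module.End K W) (hA : ∀ t, A * τ t = τ t * A) (hB : ∀ t, B * τ t = τ t * B) :
    A * B = B * A := by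
  classical
  have : Fintype (T →* Kˣ) := Fintype.ofFinite _
  have hdim := finrank_eq_card_mul hT τ σ α hcomp hcomm h0 hfree
  have hrank : ∀ l : T →* Kˣ, finrank K (LinearMap.range (wP τ l)) ≤ 1 := by
    intro l
    by_cases hl : l = 1
    · rw [hl, wP_one τ h0, LinearMap.range_zero, finrank_bot]
      exact zero_le_one
    have h2 := card_mul_finrank_range_le σ (wP τ l) (by rw [wP_mul_wP hT, if_pos rfl]) (by
      intro e he
      rw [conj_wP τ σ α hcomp, wP_mul_wP hT, if_neg]
      intro h
      exact hl (hfree e he l h.symm))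
    rw [hdim] at h2
    have h3 : Fintype.card E * finrank K (LinearMap.range (wP τ l)) ≤ Fintype.card E * 1 :=
      h2.trans (Nat.mul_le_mul_left _ h1)
    exact Nat.le_of_mul_le_mul_left h3 Fintype.card_pos
  have hw : ∀ (C : Module.End K W), (∀ t, C * τ t = τ t * C) → ∀ l, C * wP τ l = wP τ l * C := by
    intro C hC l
    unfold wP
    rw [mul_smul_comm, smul_mul_assoc, Finset.mul_sum, Finset.sum_mul]
    congr 1
    refine Finset.sum_congr rfl ?_
    intro t _
    rw [mul_smul_comm, smul_mul_assoc, hC]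
  have hpres : ∀ (C : Module.End K W), (∀ t, C * τ t = τ t * C) → ∀ l,
      ∀ x ∈ LinearMap.range (wP τ l), C x ∈ LinearMap.range (wP τ l) := by
    rintro C hC l _ ⟨y, rfl⟩
    refine ⟨C y, ?_⟩
    rw [← Module.End.mul_apply, ← hw C hC l, Module.End.mul_apply]
  have hl : ∀ l, A * B * wP τ l = B * A * wP τ l := by
    intro l
    apply LinearMap.ext
    intro w
    rw [Module.End.mul_apply, Module.End.mul_apply, Module.End.mul_apply, Module.End.mul_apply]
    exact comm_on_of_finrank_le_one _ (hrank l) A B (hpres A hA l) (hpres B hB l) _ ⟨w, rfl⟩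
  calc A * B = A * B * ∑ l, wP τ l := by rw [sum_wP hT τ hcomm, mul_one]
    _ = ∑ l, A * B * wP τ l := Finset.mul_sum _ _ _
    _ = ∑ l, B * A * wP τ l := by simp only [hl]
    _ = B * A := by rw [← Finset.mul_sum, sum_wP hT τ hcomm, mul_one]

end Cfsg.Agent.Lib.Helper98.FW
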