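import Mathlib
import Cfsg.Agent.Lib.Helper98.FW.Diag
import Cfsg.Agent.Lib.Helper98.FW.Finite

set_option autoImplicit false
set_option linter.unusedSectionVars false
set_option linter.style.haveILetI false

/-!
# Cyclic fixed points: the commutant of `T` in `Aut V` is commutative
-/

namespace Cfsg.Agent.Lib.Helper98.FW

open Module TensorProduct

theorem comm_of_fix_cyclic {V : Type*} [CommGroup V] [Finite V] (ℓ : ℕ) [hℓ : Fact ℓ.Prime]
    (hexp : ∀ v : V, v ^ ℓ = 1)
    {T E : Type*} [Group T] [Finite T] [Group E] [Finite E]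
    (τ : T →* MulAut V) (σ : E →* MulAut V) (α : E →* MulAut T)
    (hcomp : ∀ e t, σ e * τ t * (σ e)⁻¹ = τ (α e t)) (hcomm : ∀ s t, τ s * τ t = τ t * τ s)
    (hT : ¬ ℓ ∣ Nat.card T) (hE : ¬ ℓ ∣ Nat.card E)
    (hfix : ∀ v, (∀ t, τ t v = v) → v = 1)
    (hfree : ∀ e : E, e ≠ 1 → Subgroup.closure {x : T | ∃ t, x = α e t * t⁻¹} = ⊤)
    (v₀ : V) (hcyc : ∀ v, (∀ e, σ e v = v) → v ∈ Subgroup.zpowers v₀)
    (a b : MulAut V) (ha : ∀ t, a * τ t = τ t * a) (hb : ∀ t, b * τ t = τ t * b) :
    a * b = b * a := by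
  classical
  have := Fintype.ofFinite T
  have := Fintype.ofFinite E
  obtain ⟨i⟩ : Nonempty (Module (ZMod ℓ) (Additive V)) := ⟨AddCommGroup.zmodModule (n := ℓ) (by
    intro x
    exact congrArg Additive.ofMul (hexp x.toMul))⟩
  let Kb := AlgebraicClosure (ZMod ℓ)
  let τ₀ : T →* Module.End (ZMod ℓ) (Additive V) := (linHom ℓ).comp τ
  let σ₀ : E →* Module.End (ZMod ℓ) (Additive V) := (linHom ℓ).comp σ
  have hτ₀ : ∀ t m, τ₀ t m = Additive.ofMul (τ t m.toMul) := fun _ _ => rfl
  have hσ₀ : ∀ e m, σ₀ e m = Additive.ofMul (σ e m.toMul) := fun _ _ => rfl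
  haveI : Module.Finite (ZMod ℓ) (Additive V) := Module.Finite.of_finite
  have hTK : (Fintype.card T : Kb) ≠ 0 := by
    rw [Ne, CharP.cast_eq_zero_iff Kb ℓ, ← Nat.card_eq_fintype_card]
    exact hT
  have hEF : (Fintype.card E : ZMod ℓ) ≠ 0 := by
    rw [Ne, CharP.cast_eq_zero_iff (ZMod ℓ) ℓ, ← Nat.card_eq_fintype_card]
    exact hE
  have hsum0 : ∑ t, τ₀ t = 0 := by
    apply LinearMap.ext
    intro m
    rw [LinearMap.zero_apply]
    have h1 : ∀ s, τ₀ s ((∑ t, τ₀ t) m) = (∑ t, τ₀ t) m := by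
      intro s
      rw [← Module.End.mul_apply, sigma_mul_sum]
    have h2 := hfix ((∑ t, τ₀ t) m).toMul (by
      intro s
      have := h1 s
      rw [hτ₀] at this
      exact congrArg Additive.toMul this)
    exact congrArg Additive.ofMul h2
  have hfr : finrank (ZMod ℓ) (fixSub σ₀) ≤ 1 := by
    have h1 : fixSub σ₀ ≤ Submodule.span (ZMod ℓ) {Additive.ofMul v₀} := by
      intro m hm
      have h2 := hcyc m.toMul (by
        intro e
        have := hm e
        rw [hσ₀] at this
        exact congrArg Additive.toMul this)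
      obtain ⟨k, hk⟩ := Subgroup.mem_zpowers_iff.1 h2
      have h3 : m = k • Additive.ofMul v₀ := by
        rw [← ofMul_zpow, hk]
        rfl
      rw [h3]
      exact zsmul_mem (Submodule.mem_span_singleton_self _) k
    refine (Submodule.finrank_mono h1).trans ?_
    have h4 := finrank_span_le_card (R := ZMod ℓ) ({Additive.ofMul v₀} : Set (Additive V))
    simpa using h4
  have key := commute_of_finrank_fix_le_one (K := Kb) (W := Kb ⊗[ZMod ℓ] Additive V) hTK
    (bc Kb τ₀) (bc Kb σ₀) α
    (by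
      intro e t
      have h1 : σ₀ e * τ₀ t * σ₀ e⁻¹ = τ₀ (α e t) := by
        simp only [τ₀, σ₀, MonoidHom.comp_apply]
        rw [← hcomp, map_mul, map_mul, map_inv]
      rw [bc_apply, bc_apply, bc_apply, bc_apply, ← h1, LinearMap.baseChange_mul,
        LinearMap.baseChange_mul])
    (by
      intro s t
      have h1 : τ₀ s * τ₀ t = τ₀ t * τ₀ s := by
        simp only [τ₀, MonoidHom.comp_apply]
        rw [← map_mul, hcomm, map_mul]
      rw [bc_apply, bc_apply, ← LinearMap.baseChange_mul, h1, LinearMap.baseChange_mul])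
    (by
      have : ∑ t, bc Kb τ₀ t = Module.End.baseChangeHom (ZMod ℓ) Kb (Additive V) (∑ t, τ₀ t) := by
        rw [map_sum]
        rfl
      rw [this, hsum0, map_zero])
    (by
      intro e he l hl
      have h1 : Subgroup.closure {x : T | ∃ t, x = α e t * t⁻¹} ≤ l.ker := by
        rw [Subgroup.closure_le]
        rintro x ⟨t, rfl⟩
        change _ ∈ l.ker
        rw [MonoidHom.mem_ker, map_mul, map_inv, mul_inv_eq_one]
        have h2 := congrArg (fun f : T →* Kbˣ => f (α e t)) hl
        simp only [chAct_apply] at h2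
        rw [MulAut.inv_apply_self] at h2
        exact h2.symm
      rw [hfree e he, top_le_iff, MonoidHom.ker_eq_top_iff] at h1
      exact h1)
    (by rw [finrank_fixSub_bc Kb hEF σ₀]; exact hfr)
    (LinearMap.baseChange Kb (linHom ℓ a)) (LinearMap.baseChange Kb (linHom ℓ b))
    (by
      intro t
      have h1 : linHom ℓ a * τ₀ t = τ₀ t * linHom ℓ a := by
        simp only [τ₀, MonoidHom.comp_apply]
        rw [← map_mul, ha, map_mul]
      rw [bc_apply, ← LinearMap.baseChange_mul, h1, LinearMap.baseChange_mul])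
    (by
      intro t
      have h1 : linHom ℓ b * τ₀ t = τ₀ t * linHom ℓ b := by
        simp only [τ₀, MonoidHom.comp_apply]
        rw [← map_mul, hb, map_mul]
      rw [bc_apply, ← LinearMap.baseChange_mul, h1, LinearMap.baseChange_mul])
  rw [← LinearMap.baseChange_mul, ← LinearMap.baseChange_mul] at key
  have key2 : linHom ℓ a * linHom ℓ b = linHom ℓ b * linHom ℓ a :=
    LinearMap.baseChangeHom_injective (ZMod ℓ) (Additive V) Kb key
  ext v
  have h3 := LinearMap.congr_fun key2 (Additive.ofMul v)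
  exact congrArg Additive.toMul h3

end Cfsg.Agent.Lib.Helper98.FW
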