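import Mathlib
import Cfsg.Agent.Lib.Helper98.FW.DiagFinite
import Cfsg.Agent.Lib.Helper98.FW.AbsIrr

set_option autoImplicit false
set_option linter.unusedSectionVars false
set_option linter.style.haveILetI false

/-!
# Irreducible abelian sections with cyclic fixed points: the kernel acts as an abelian group
-/

namespace Cfsg.Agent.Lib.Helper98.FW

variable {Γ : Type*} [Group Γ] [Finite Γ] {Q : Type*} [CommGroup Q] [Finite Q]

theorem abs_comm (U E : Subgroup Γ) [hUn : U.Normal] (hnil : Group.IsNilpotent U)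
    (hfpf : ∀ e ∈ E, e ≠ 1 → ∀ u ∈ U, e * u = u * e → u = 1)
    (φ : Γ →* MulAut Q) (hcop : (Nat.card Q).Coprime (Nat.card Γ))
    (hirr : ∀ S : Subgroup Q, (∀ g : Γ, ∀ v ∈ S, φ g v ∈ S) → S = ⊥ ∨ S = ⊤)
    (v₀ : Q) (hcyc : ∀ v, (∀ e ∈ E, φ e v = v) → v ∈ Subgroup.zpowers v₀) :
    ∀ a ∈ U, ∀ b ∈ U, φ a * φ b = φ b * φ a := by
  classical
  by_cases hU : ∃ u ∈ U, φ u ≠ 1
  swap
  · push Not at hU
    intro a ha b hb
    rw [hU a ha, hU b hb]
  have hQ : Nat.card Q ≠ 1 := by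
    intro hQ
    have hs : Subsingleton Q := (Nat.card_eq_one_iff_unique.1 hQ).1
    obtain ⟨u, _, hu⟩ := hU
    apply hu
    ext v
    exact Subsingleton.elim _ _
  obtain ⟨ℓ, hℓ, hℓQ⟩ := Nat.exists_prime_and_dvd hQ
  haveI := Fact.mk hℓ
  have hexp : ∀ v : Q, v ^ ℓ = 1 := by
    rcases hirr (powMonoidHom ℓ : Q →* Q).ker (by
      intro g v hv
      rw [MonoidHom.mem_ker, powMonoidHom_apply] at hv ⊢
      rw [← map_pow, hv, map_one]) with h1 | h1
    · exfalso
      obtain ⟨x, hx⟩ := exists_prime_orderOf_dvd_card' (G := Q) ℓ hℓQ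
      have h2 : x ∈ (powMonoidHom ℓ : Q →* Q).ker := by
        rw [MonoidHom.mem_ker, powMonoidHom_apply, ← hx, pow_orderOf_eq_one]
      rw [h1, Subgroup.mem_bot] at h2
      rw [h2, orderOf_one] at hx
      exact hℓ.one_lt.ne hx
    · intro v
      have : v ∈ (powMonoidHom ℓ : Q →* Q).ker := by rw [h1]; exact Subgroup.mem_top v
      rwa [MonoidHom.mem_ker, powMonoidHom_apply] at this
  have hnd : ∀ B : Subgroup Γ, ¬ ℓ ∣ Nat.card B := by
    intro B hB
    have h1 : ℓ ∣ Nat.card Γ := hB.trans (Subgroup.card_subgroup_dvd_card B)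
    have h2 := Nat.dvd_gcd hℓQ h1
    rw [hcop.gcd_eq_one] at h2
    exact hℓ.one_lt.ne' (Nat.dvd_one.1 h2)
  set T := cenSub U φ with hTdef
  haveI hTn : T.Normal := cenSub_normal U φ
  have hTU : T ≤ U := fun t ht => ht.1
  obtain ⟨t₀, ht₀, ht₀1⟩ := exists_cenSub_ne_one U hnil φ hU
  have hfixT : ∀ v, (∀ b ∈ T, φ b v = v) → v = 1 := by
    rcases hirr (fixB φ T) (fun g v hv => fixB_invariant φ T g v hv) with h1 | h1
    · intro v hv
      have : v ∈ fixB φ T := hv
      rwa [h1, Subgroup.mem_bot] at this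
    · exfalso
      apply ht₀1
      ext v
      have : v ∈ fixB φ T := by rw [h1]; exact Subgroup.mem_top v
      exact this t₀ ht₀
  intro a ha b hb
  refine comm_of_fix_cyclic ℓ hexp (T := T) (E := E) (φ.comp T.subtype) (φ.comp E.subtype)
    ((MulAut.conjNormal (H := T)).comp E.subtype)
    (by
      intro e t
      simp only [MonoidHom.comp_apply, Subgroup.coe_subtype]
      rw [MulAut.conjNormal_apply, map_mul, map_mul, map_inv])
    (by
      intro s t
      simp only [MonoidHom.comp_apply, Subgroup.coe_subtype]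
      exact s.2.2 t (hTU t.2))
    (hnd T) (hnd E)
    (by
      intro v hv
      exact hfixT v (fun b hb => hv ⟨b, hb⟩))
    (by
      intro e he
      rw [eq_top_iff]
      intro x _
      apply Subgroup.subset_closure
      have hinj : Function.Injective (fun t : T => ((MulAut.conjNormal (H := T)).comp E.subtype) e t * t⁻¹) := by
        intro s t hst
        have h1 : (e : Γ) * s * (e : Γ)⁻¹ * (s : Γ)⁻¹ = (e : Γ) * t * (e : Γ)⁻¹ * (t : Γ)⁻¹ := by
          have := congrArg (fun z : T => (z : Γ)) hst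
          simpa [MulAut.conjNormal_apply] using this
        have h2 : (e : Γ) * ((t : Γ)⁻¹ * s) = ((t : Γ)⁻¹ * s) * e := by
          have h3 : (e : Γ) * s * (e : Γ)⁻¹ = (e : Γ) * t * (e : Γ)⁻¹ * (t : Γ)⁻¹ * s := by
            rw [← h1]; group
          calc (e : Γ) * ((t : Γ)⁻¹ * s) = ((e : Γ) * t * (e : Γ)⁻¹)⁻¹ * ((e : Γ) * s * (e : Γ)⁻¹) * e := by group
            _ = ((e : Γ) * t * (e : Γ)⁻¹)⁻¹ * ((e : Γ) * t * (e : Γ)⁻¹ * (t : Γ)⁻¹ * s) * e := by rw [h3]
            _ = ((t : Γ)⁻¹ * s) * e := by group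
        have h4 := hfpf e e.2 (fun h => he (Subtype.ext h)) ((t : Γ)⁻¹ * s)
          (U.mul_mem (U.inv_mem (hTU t.2)) (hTU s.2)) h2
        apply Subtype.ext
        rw [inv_mul_eq_one] at h4
        exact h4.symm
      obtain ⟨t, ht⟩ := (Finite.surjective_of_injective hinj) x
      exact ⟨t, ht.symm⟩)
    v₀
    (by
      intro v hv
      exact hcyc v (fun e he => hv ⟨e, he⟩))
    (φ a) (φ b)
    (by
      intro t
      exact (t.2.2 a ha).symm)
    (by
      intro t
      exact (t.2.2 b hb).symm)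

/-- `abs_comm` for a group which happens to be commutative -/
theorem abs_comm' {Γ : Type*} [Group Γ] [Finite Γ] {Q : Type*} [Group Q] [Finite Q]
    (hc : ∀ a b : Q, a * b = b * a)
    (U E : Subgroup Γ) [hUn : U.Normal] (hnil : Group.IsNilpotent U)
    (hfpf : ∀ e ∈ E, e ≠ 1 → ∀ u ∈ U, e * u = u * e → u = 1)
    (φ : Γ →* MulAut Q) (hcop : (Nat.card Q).Coprime (Nat.card Γ))
    (hirr : ∀ S : Subgroup Q, (∀ g : Γ, ∀ v ∈ S, φ g v ∈ S) → S = ⊥ ∨ S = ⊤)
    (v₀ : Q) (hcyc : ∀ v, (∀ e ∈ E, φ e v = v) → v ∈ Subgroup.zpowers v₀) :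
    ∀ a ∈ U, ∀ b ∈ U, φ a * φ b = φ b * φ a := by
  letI : CommGroup Q := { ‹Group Q› with mul_comm := hc }
  exact abs_comm U E hnil hfpf φ hcop hirr v₀ hcyc

end Cfsg.Agent.Lib.Helper98.FW
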